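import Cfsg.Agent.Lib.Helper18.StCert.Base

/-!
# Certificates for type B₂
-/

set_option autoImplicit false

namespace Cfsg.Agent.Lib.Helper18.StAbs

open Cfsg Cfsg.Lie Cfsg.Lie.ChevalleyDatum

/-- the elements of the Weyl group of type B₂ as words -/
def wsB2 : List (List ℕ) := [[], [0], [1], [0, 1], [1, 0], [0, 1, 0], [1, 0, 1], [0, 1, 0, 1]]

/-- for the long roots: a fundamental root with Cartan integer `±2` and two short roots with
the long root as their sum -/
def longsB2 : List (ℕ × ℕ × ℕ) := [(0, 1, 2), (0, 1, 5), (0, 2, 6), (0, 5, 6)]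

theorem cart_B2 : cartChk chevB2 = true := by decide +kernel

theorem chunk_B2 : chunkF chevB2 wsB2 (List.range chevB2.nroots) = true := by decide +kernel

theorem root_B2 : rootB chevB2 (bzCands chevB2) longsB2 = true := by decide +kernel

theorem pair_B2 : ∀ r s, r < chevB2.nroots → s < chevB2.nroots → s ≠ r → s ≠ chevB2.neg r →
    PairCert chevB2 r s :=
  fun r s hr hs hsr hsn => pairCert_of_chunk chevB2 cart_B2 wsB2 _ chunk_B2 r s
    (List.mem_range.mpr hr) hr hs hsr hsn

theorem rootc_B2 : ∀ γ < chevB2.nroots, RootCert chevB2 γ :=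
  rootCert_of_rootB chevB2 _ _ root_B2

end Cfsg.Agent.Lib.Helper18.StAbs
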