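import Cfsg.Agent.Lib.Helper18.StCert.D4a
import Cfsg.Agent.Lib.Helper18.StCert.D4x
import Cfsg.Agent.Lib.Helper18.StCert.D4y

/-!
# Certificates for type D4
-/

set_option autoImplicit false

namespace Cfsg.Agent.Lib.Helper18.StAbs

open Cfsg Cfsg.Lie Cfsg.Lie.ChevalleyDatum

set_option maxRecDepth 100000 in
theorem cover_D4 : (tabD4a).map Prod.fst = List.range chevD4.nroots := by
  decide +kernel

theorem rows_D4 : ∀ r < chevD4.nroots, RowOK chevD4 r := by
  intro r hr
  obtain ⟨x, hx, rfl⟩ := cover_of_eq chevD4 _ cover_D4 r hr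
  exact rowOK_of_slChunk chevD4 tabD4a chunk_D4a x hx

theorem pair_D4 : ∀ r s, r < chevD4.nroots → s < chevD4.nroots → s ≠ r → s ≠ chevD4.neg r →
    PairCert chevD4 r s :=
  pairCert_sl chevD4 sl_D4 cart_D4 rows_D4

theorem rootc_D4 : ∀ γ < chevD4.nroots, RootCert chevD4 γ :=
  rootCert_of_rootB chevD4 _ _ root_D4

end Cfsg.Agent.Lib.Helper18.StAbs
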