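import Cfsg.Agent.Lib.Helper18.StCert.Base

/-!
# Certificates for type E6, part 2
-/

set_option autoImplicit false

namespace Cfsg.Agent.Lib.Helper18.StAbs

open Cfsg Cfsg.Lie Cfsg.Lie.ChevalleyDatum

/-- for each root `r`: fundamental roots and pairs of fundamental roots giving diagonal elements
which centralise `X_r` and act nontrivially on the other root subgroups -/
def tabE6b : List (ℕ × List ℕ × List (ℕ × ℕ × ℤ × ℤ)) :=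
  [(36, [3, 0, 1], [(4, 5, 2, 1)]),
  (37, [1, 2], [(3, 4, 2, 1)]),
  (38, [0, 1], [(4, 5, 1, -1), (3, 4, 1, 1)]),
  (39, [], [(1, 3, 2, 1), (2, 4, -1, 1)]),
  (40, [], [(3, 4, 1, -1), (1, 2, -1, 1)]),
  (41, [4, 0], [(1, 2, -1, 1)]),
  (42, [1, 4], [(0, 2, 2, 1), (0, 3, -1, 1)]),
  (43, [], [(2, 3, 1, -1), (1, 4, -1, 1)]),
  (44, [], [(0, 1, -1, 1), (0, 4, 1, 1), (0, 2, 1, 1)]),
  (45, [4], [(0, 1, -1, 1), (0, 2, 1, 1)]),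
  (46, [2, 4], [(1, 3, -1, -2)]),
  (47, [], [(1, 3, 1, -1), (2, 4, -1, 1)]),
  (48, [0], [(1, 2, -1, -1), (1, 4, 1, -1)]),
  (49, [4, 0], [(1, 2, -1, -1)]),
  (50, [5, 3], [(0, 1, 1, 1)]),
  (51, [], [(0, 1, 1, 1), (0, 4, 1, 1), (0, 2, 1, 1)]),
  (52, [4], [(0, 1, 1, 1), (0, 2, 1, 1)]),
  (53, [1], [(0, 3, 1, 1), (0, 5, -1, 1)]),
  (54, [1], [(0, 3, 1, 1), (0, 5, 1, 1)]),
  (55, [1, 2], [(0, 4, 1, 1)]),
  (56, [3, 1, 4], [(0, 2, -1, -2)]),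
  (57, [1, 4], [(0, 2, 1, -1), (0, 3, -1, -1)]),
  (58, [5, 2], [(0, 1, -1, -1)]),
  (59, [2], [(0, 1, -1, -1), (0, 4, 1, -1)]),
  (60, [4, 2], [(0, 1, -1, -1)]),
  (61, [5, 2], [(0, 1, 1, -1)]),
  (62, [2], [(0, 1, 1, -1), (0, 4, 1, -1)]),
  (63, [4, 2], [(0, 1, 1, -1)]),
  (64, [1], [(0, 3, 1, -1), (0, 5, -1, -1)]),
  (65, [1], [(0, 3, 1, -1), (0, 5, 1, -1)]),
  (66, [1, 5], [(0, 4, 1, -1)]),
  (67, [1, 0], [(2, 5, -1, -1)]),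
  (68, [1, 0], [(2, 4, -1, -1)]),
  (69, [1, 0], [(2, 4, 1, -1)]),
  (70, [0, 2, 4], [(1, 3, 1, 1)]),
  (71, [0, 2, 3, 4], [])]

set_option maxRecDepth 100000 in
theorem chunk_E6b : slChunkB chevE6 tabE6b = true := by decide +kernel

end Cfsg.Agent.Lib.Helper18.StAbs
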