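import Cfsg.Agent.Lib.Helper18.StCert.E6a
import Cfsg.Agent.Lib.Helper18.StCert.E6b
import Cfsg.Agent.Lib.Helper18.StCert.E6x
import Cfsg.Agent.Lib.Helper18.StCert.E6y

/-!
# Certificates for type E6
-/

set_option autoImplicit false

namespace Cfsg.Agent.Lib.Helper18.StAbs

open Cfsg Cfsg.Lie Cfsg.Lie.ChevalleyDatum

set_option maxRecDepth 100000 in
theorem cover_E6 : (tabE6a ++ tabE6b).map Prod.fst = List.range chevE6.nroots := by
  decide +kernel

theorem rows_E6 : ∀ r < chevE6.nroots, RowOK chevE6 r := by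
  intro r hr
  obtain ⟨x, hx, rfl⟩ := cover_of_eq chevE6 _ cover_E6 r hr
  simp only [List.mem_append] at hx
  rcases hx with hx | hx
  · exact rowOK_of_slChunk chevE6 tabE6a chunk_E6a x hx
  · exact rowOK_of_slChunk chevE6 tabE6b chunk_E6b x hx

theorem pair_E6 : ∀ r s, r < chevE6.nroots → s < chevE6.nroots → s ≠ r → s ≠ chevE6.neg r →
    PairCert chevE6 r s :=
  pairCert_sl chevE6 sl_E6 cart_E6 rows_E6

theorem rootc_E6 : ∀ γ < chevE6.nroots, RootCert chevE6 γ :=
  rootCert_of_rootB chevE6 _ _ root_E6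

end Cfsg.Agent.Lib.Helper18.StAbs
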