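import Cfsg.Agent.Lib.Helper18.StCert.Base

/-!
# Certificates for type E7, part 2
-/

set_option autoImplicit false

namespace Cfsg.Agent.Lib.Helper18.StAbs

open Cfsg Cfsg.Lie Cfsg.Lie.ChevalleyDatum

/-- for each root `r`: fundamental roots and pairs of fundamental roots giving diagonal elements
which centralise `X_r` and act nontrivially on the other root subgroups -/
def tabE7b : List (ℕ × List ℕ × List (ℕ × ℕ × ℤ × ℤ)) :=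
  [(32, [1, 4, 5], [(0, 2, 1, 2)]),
  (33, [1, 2, 3], [(0, 5, -1, -1)]),
  (34, [2, 1], [(0, 4, -1, -1), (0, 6, -1, -1)]),
  (35, [2, 1], [(0, 4, -1, -1), (0, 6, 1, -1)]),
  (36, [1, 2], [(0, 3, -1, -1), (0, 6, -1, -1)]),
  (37, [], [(0, 3, -1, -1), (0, 5, -1, -1), (4, 6, 1, -1)]),
  (38, [1, 2], [(0, 3, -1, -1), (0, 5, 1, -1)]),
  (39, [5], [(0, 1, -1, -1), (0, 6, -1, -1), (0, 2, -1, -1)]),
  (40, [4], [(0, 1, -1, -1), (0, 5, -1, -1), (0, 2, -1, -1)]),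
  (41, [], [(0, 1, -1, -1), (0, 4, -1, -1), (3, 5, 1, -1)]),
  (42, [5, 3], [(0, 1, -1, -1), (0, 4, 1, -1)]),
  (43, [0, 3], [(1, 2, 1, 1), (1, 6, -1, 1)]),
  (44, [0, 3], [(1, 2, 1, 1), (1, 5, -1, 1)]),
  (45, [0, 6], [(1, 2, 1, 1), (1, 4, -1, 1)]),
  (46, [0, 5], [(1, 3, -1, 1), (2, 4, 1, -1)]),
  (47, [0, 5, 2], [(1, 3, 1, 2)]),
  (48, [3, 5], [(0, 1, 1, -1), (0, 6, -1, -1)]),
  (49, [3, 4], [(0, 1, 1, -1), (0, 5, -1, -1)]),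
  (50, [6], [(0, 1, 1, -1), (0, 4, -1, -1), (0, 2, -1, -1)]),
  (51, [5], [(2, 3, -1, 1), (1, 4, 1, -1), (0, 1, 1, -1)]),
  (52, [1, 4, 5], [(0, 2, -2, -1)]),
  (53, [0, 4], [(1, 2, 1, -1), (1, 6, -1, -1)]),
  (54, [0, 4], [(1, 2, 1, -1), (1, 5, -1, -1)]),
  (55, [0, 6], [(3, 4, -1, 1), (1, 2, 1, -1)]),
  (56, [0, 5], [(1, 3, -2, -1), (2, 4, 1, -1)]),
  (57, [0, 1, 2], [(3, 6, -1, -1)]),
  (58, [0, 1], [(4, 5, -1, 1), (3, 6, 1, -1)]),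
  (59, [0, 6, 2], [(3, 4, -2, -1)]),
  (60, [0, 1, 2], [(5, 6, -1, 1)]),
  (61, [0, 1, 2], [(4, 5, -2, -1)]),
  (62, [0, 1, 2], [(5, 6, -2, -1)]),
  (63, [0, 1, 2], [(5, 6, 2, 1)])]

set_option maxRecDepth 100000 in
theorem chunk_E7b : slChunkB chevE7 tabE7b = true := by decide +kernel

end Cfsg.Agent.Lib.Helper18.StAbs
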