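import Cfsg.Agent.Lib.Helper18.StCert.Base

/-!
# Certificates for type E7, part 3
-/

set_option autoImplicit false

namespace Cfsg.Agent.Lib.Helper18.StAbs

open Cfsg Cfsg.Lie Cfsg.Lie.ChevalleyDatum

/-- for each root `r`: fundamental roots and pairs of fundamental roots giving diagonal elements
which centralise `X_r` and act nontrivially on the other root subgroups -/
def tabE7c : List (ℕ × List ℕ × List (ℕ × ℕ × ℤ × ℤ)) :=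
  [(64, [0, 1, 2], [(4, 5, 2, 1)]),
  (65, [0, 1, 2], [(5, 6, 1, -1)]),
  (66, [0, 6, 2], [(3, 4, 2, 1)]),
  (67, [0, 1], [(4, 5, 1, -1), (3, 6, -1, 1)]),
  (68, [0, 1, 2], [(3, 6, 1, 1)]),
  (69, [0, 5], [(1, 3, 2, 1), (2, 4, -1, 1)]),
  (70, [0, 6], [(3, 4, 1, -1), (1, 2, -1, 1)]),
  (71, [0, 4], [(1, 2, -1, 1), (1, 5, 1, 1)]),
  (72, [0, 4], [(1, 2, -1, 1), (1, 6, 1, 1)]),
  (73, [1, 4, 5], [(0, 2, 2, 1)]),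
  (74, [5], [(2, 3, 1, -1), (1, 4, -1, 1), (0, 1, -1, 1)]),
  (75, [6], [(0, 1, -1, 1), (0, 4, 1, 1), (0, 2, 1, 1)]),
  (76, [3, 4], [(0, 1, -1, 1), (0, 5, 1, 1)]),
  (77, [3, 5], [(0, 1, -1, 1), (0, 6, 1, 1)]),
  (78, [0, 5, 2], [(1, 3, -1, -2)]),
  (79, [0, 5], [(1, 3, 1, -1), (2, 4, -1, 1)]),
  (80, [0, 6], [(1, 2, -1, -1), (1, 4, 1, -1)]),
  (81, [0, 3], [(1, 2, -1, -1), (1, 5, 1, -1)]),
  (82, [0, 3], [(1, 2, -1, -1), (1, 6, 1, -1)]),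
  (83, [5, 3], [(0, 1, 1, 1), (0, 4, -1, 1)]),
  (84, [], [(0, 1, 1, 1), (0, 4, 1, 1), (3, 5, -1, 1)]),
  (85, [4], [(0, 1, 1, 1), (0, 5, 1, 1), (0, 2, 1, 1)]),
  (86, [5], [(0, 1, 1, 1), (0, 6, 1, 1), (0, 2, 1, 1)]),
  (87, [1, 2], [(0, 3, 1, 1), (0, 5, -1, 1)]),
  (88, [], [(0, 3, 1, 1), (0, 5, 1, 1), (4, 6, -1, 1)]),
  (89, [1, 2], [(0, 3, 1, 1), (0, 6, 1, 1)]),
  (90, [2, 1], [(0, 4, 1, 1), (0, 6, -1, 1)]),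
  (91, [2, 1], [(0, 4, 1, 1), (0, 6, 1, 1)]),
  (92, [1, 2, 3], [(0, 5, 1, 1)]),
  (93, [1, 4, 5], [(0, 2, -1, -2)]),
  (94, [1, 4, 5], [(0, 2, 1, -1)]),
  (95, [2, 5], [(0, 1, -1, -1), (0, 4, -1, -1)])]

set_option maxRecDepth 100000 in
theorem chunk_E7c : slChunkB chevE7 tabE7c = true := by decide +kernel

end Cfsg.Agent.Lib.Helper18.StAbs
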