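import Cfsg.Agent.Lib.Helper18.StCert.Base

/-!
# Certificates for type E7, part 4
-/

set_option autoImplicit false

namespace Cfsg.Agent.Lib.Helper18.StAbs

open Cfsg Cfsg.Lie Cfsg.Lie.ChevalleyDatum

/-- for each root `r`: fundamental roots and pairs of fundamental roots giving diagonal elements
which centralise `X_r` and act nontrivially on the other root subgroups -/
def tabE7d : List (ℕ × List ℕ × List (ℕ × ℕ × ℤ × ℤ)) :=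
  [(96, [2, 6], [(0, 1, -1, -1), (0, 4, 1, -1)]),
  (97, [2, 3], [(0, 1, -1, -1), (0, 5, 1, -1)]),
  (98, [2, 3], [(0, 1, -1, -1), (0, 6, 1, -1)]),
  (99, [2, 5], [(0, 1, 1, -1), (0, 4, -1, -1)]),
  (100, [], [(0, 1, 1, -1), (0, 4, 1, -1), (3, 5, -1, 1)]),
  (101, [2, 4], [(0, 1, 1, -1), (0, 5, 1, -1)]),
  (102, [2, 4], [(0, 1, 1, -1), (0, 6, 1, -1)]),
  (103, [1, 4], [(0, 3, 1, -1), (0, 5, -1, -1)]),
  (104, [], [(0, 3, 1, -1), (0, 5, 1, -1), (4, 6, -1, 1)]),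
  (105, [], [(0, 3, 1, -1), (0, 6, 1, -1), (2, 4, -1, 1)]),
  (106, [3, 5], [(0, 4, 1, -1), (0, 6, -1, -1)]),
  (107, [3], [(0, 4, 1, -1), (0, 6, 1, -1), (0, 2, -1, -1)]),
  (108, [1, 3, 4], [(0, 5, 1, -1)]),
  (109, [1, 0, 3], [(2, 5, -1, -1)]),
  (110, [0, 1], [(2, 4, -1, -1), (2, 6, -1, -1)]),
  (111, [0, 1], [(2, 4, -1, -1), (2, 6, 1, -1)]),
  (112, [0, 1], [(2, 4, 1, -1), (2, 6, -1, -1)]),
  (113, [0, 1], [(2, 4, 1, -1), (2, 6, 1, -1)]),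
  (114, [1, 0, 4], [(2, 5, 1, -1)]),
  (115, [0, 2, 5], [(1, 6, -1, 1)]),
  (116, [0, 2, 4], [(1, 5, -1, 1)]),
  (117, [0], [(1, 4, -1, 1), (3, 5, 1, -1)]),
  (118, [0, 2, 5], [(1, 4, 1, 1)]),
  (119, [0, 2, 3], [(1, 6, -1, -1)]),
  (120, [0, 2, 3], [(1, 5, -1, -1)]),
  (121, [0, 2], [(1, 4, -1, -1), (1, 5, 1, -1)]),
  (122, [0, 2, 5], [(1, 4, 1, -1)]),
  (123, [0, 1, 4, 5], []),
  (124, [1, 4, 5], [(0, 2, 1, 1)]),
  (125, [1, 2, 4, 5], [])]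

set_option maxRecDepth 100000 in
theorem chunk_E7d : slChunkB chevE7 tabE7d = true := by decide +kernel

end Cfsg.Agent.Lib.Helper18.StAbs
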