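import Cfsg.Agent.Lib.Helper18.StCert.Base

/-!
# Certificates for type E7: the single roots
-/

set_option autoImplicit false

namespace Cfsg.Agent.Lib.Helper18.StAbs

open Cfsg Cfsg.Lie Cfsg.Lie.ChevalleyDatum

theorem root_E7 : rootB chevE7 (bzCands chevE7) [] = true := by decide +kernel

end Cfsg.Agent.Lib.Helper18.StAbs
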