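import Cfsg.Agent.Lib.Helper18.StCert.E7a
import Cfsg.Agent.Lib.Helper18.StCert.E7b
import Cfsg.Agent.Lib.Helper18.StCert.E7c
import Cfsg.Agent.Lib.Helper18.StCert.E7d
import Cfsg.Agent.Lib.Helper18.StCert.E7x
import Cfsg.Agent.Lib.Helper18.StCert.E7y

/-!
# Certificates for type E7
-/

set_option autoImplicit false

namespace Cfsg.Agent.Lib.Helper18.StAbs

open Cfsg Cfsg.Lie Cfsg.Lie.ChevalleyDatum

set_option maxRecDepth 100000 in
theorem cover_E7 : (tabE7a ++ tabE7b ++ tabE7c ++ tabE7d).map Prod.fst = List.range chevE7.nroots := by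
  decide +kernel

theorem rows_E7 : ∀ r < chevE7.nroots, RowOK chevE7 r := by
  intro r hr
  obtain ⟨x, hx, rfl⟩ := cover_of_eq chevE7 _ cover_E7 r hr
  simp only [List.mem_append] at hx
  rcases hx with ((hx | hx) | hx) | hx
  · exact rowOK_of_slChunk chevE7 tabE7a chunk_E7a x hx
  · exact rowOK_of_slChunk chevE7 tabE7b chunk_E7b x hx
  · exact rowOK_of_slChunk chevE7 tabE7c chunk_E7c x hx
  · exact rowOK_of_slChunk chevE7 tabE7d chunk_E7d x hx

theorem pair_E7 : ∀ r s, r < chevE7.nroots → s < chevE7.nroots → s ≠ r → s ≠ chevE7.neg r →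
    PairCert chevE7 r s :=
  pairCert_sl chevE7 sl_E7 cart_E7 rows_E7

theorem rootc_E7 : ∀ γ < chevE7.nroots, RootCert chevE7 γ :=
  rootCert_of_rootB chevE7 _ _ root_E7

end Cfsg.Agent.Lib.Helper18.StAbs
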