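import Cfsg.Agent.Lib.Helper18.StCert.Base

/-!
# Certificates for type E8, part 2
-/

set_option autoImplicit false

namespace Cfsg.Agent.Lib.Helper18.StAbs

open Cfsg Cfsg.Lie Cfsg.Lie.ChevalleyDatum

/-- for each root `r`: fundamental roots and pairs of fundamental roots giving diagonal elements
which centralise `X_r` and act nontrivially on the other root subgroups -/
def tabE8b : List (ℕ × List ℕ × List (ℕ × ℕ × ℤ × ℤ)) :=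
  [(30, [0, 7, 2], [(1, 4, 1, 1), (1, 6, -1, 1)]),
  (31, [0], [(1, 4, 1, 1), (1, 6, 1, 1), (5, 7, -1, 1)]),
  (32, [0, 6, 2], [(1, 4, 1, 1), (1, 7, 1, 1)]),
  (33, [0, 3, 2], [(1, 5, 1, 1), (1, 7, -1, 1)]),
  (34, [0, 3, 2], [(1, 5, 1, 1), (1, 7, 1, 1)]),
  (35, [0, 4, 2, 7], [(1, 6, 1, 1)]),
  (36, [0, 7, 2, 3], [(1, 5, -1, -1)]),
  (37, [0, 7, 2], [(1, 4, -1, -1), (1, 6, -1, -1)]),
  (38, [0, 2], [(1, 4, -1, -1), (1, 6, 1, -1), (1, 7, -1, -1)]),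
  (39, [0, 5, 2], [(1, 4, -1, -1), (1, 7, 1, -1)]),
  (40, [2, 7], [(1, 4, 1, -1), (3, 6, -1, 1)]),
  (41, [2], [(1, 4, 1, -1), (3, 6, 1, 1), (5, 7, -1, 1)]),
  (42, [0], [(1, 4, 1, -1), (3, 7, 1, 1), (3, 5, -1, 1)]),
  (43, [0, 4, 2], [(1, 5, 1, -1), (1, 7, -1, -1)]),
  (44, [2], [(1, 5, 1, -1), (1, 7, 1, -1), (3, 6, -1, 1)]),
  (45, [0, 4, 2, 7], [(1, 6, 1, -1)]),
  (46, [0, 5, 7], [(2, 6, -1, 1), (2, 3, 1, 1)]),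
  (47, [1], [(2, 5, -1, 1), (2, 7, -1, 1), (3, 6, 1, -1)]),
  (48, [1, 0, 4], [(2, 5, -1, 1), (2, 7, 1, 1)]),
  (49, [0, 1], [(2, 4, -1, 1), (3, 7, -1, -1), (3, 5, 1, -1)]),
  (50, [1], [(2, 4, -1, 1), (3, 6, -1, -1), (5, 7, 1, -1)]),
  (51, [0, 1, 7], [(2, 4, -1, 1), (3, 6, 1, -1)]),
  (52, [1, 0, 5], [(2, 4, 1, 1), (2, 7, -1, 1)]),
  (53, [1, 0], [(2, 4, 1, 1), (2, 6, -1, 1), (2, 7, 1, 1)]),
  (54, [1, 0, 7], [(2, 4, 1, 1), (2, 6, 1, 1)]),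
  (55, [0, 3, 6, 7], [(2, 5, 1, 1)]),
  (56, [1, 4, 7, 5], [(0, 6, -1, 1)]),
  (57, [3], [(0, 5, -1, 1), (0, 7, -1, 1), (2, 6, 1, -1)]),
  (58, [1, 4, 3], [(0, 5, -1, 1), (0, 7, 1, 1)]),
  (59, [1, 6], [(0, 4, -1, 1), (0, 7, -1, 1), (0, 2, 1, 1)])]

set_option maxRecDepth 100000 in
theorem chunk_E8b : slChunkB chevE8 tabE8b = true := by decide +kernel

end Cfsg.Agent.Lib.Helper18.StAbs
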