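import Cfsg.Agent.Lib.Helper18.StCert.Base

/-!
# Certificates for type E8, part 3
-/

set_option autoImplicit false

namespace Cfsg.Agent.Lib.Helper18.StAbs

open Cfsg Cfsg.Lie Cfsg.Lie.ChevalleyDatum

/-- for each root `r`: fundamental roots and pairs of fundamental roots giving diagonal elements
which centralise `X_r` and act nontrivially on the other root subgroups -/
def tabE8c : List (ℕ × List ℕ × List (ℕ × ℕ × ℤ × ℤ)) :=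
  [(60, [3], [(0, 4, -1, 1), (0, 6, -1, 1), (2, 5, 1, -1), (0, 7, 1, 1)]),
  (61, [1, 7, 5], [(0, 4, -1, 1), (0, 6, 1, 1)]),
  (62, [1, 5], [(0, 3, -1, 1), (2, 7, -1, -1), (2, 4, 1, -1)]),
  (63, [5], [(0, 3, -1, 1), (2, 6, -1, -1), (0, 7, 1, 1)]),
  (64, [7], [(0, 3, -1, 1), (2, 5, -1, -1), (4, 6, 1, -1), (0, 2, 1, 1)]),
  (65, [1, 6, 7], [(0, 3, -1, 1), (2, 5, 1, -1)]),
  (66, [4, 2, 5], [(0, 1, -1, 1), (0, 7, -1, 1)]),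
  (67, [4, 2], [(0, 1, -1, 1), (0, 6, -1, 1), (0, 7, 1, 1)]),
  (68, [7, 2, 4], [(0, 1, -1, 1), (0, 5, -1, 1)]),
  (69, [7], [(0, 1, -1, 1), (0, 4, -1, 1), (3, 5, 1, -1)]),
  (70, [6, 2, 7], [(0, 1, -1, 1), (0, 4, 1, 1)]),
  (71, [4, 2, 5], [(0, 1, 1, 1), (0, 7, -1, 1)]),
  (72, [4, 2], [(0, 1, 1, 1), (0, 6, -1, 1), (0, 7, 1, 1)]),
  (73, [7, 2, 3], [(0, 1, 1, 1), (0, 5, -1, 1)]),
  (74, [6, 2, 7], [(0, 1, 1, 1), (0, 4, -1, 1)]),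
  (75, [6, 2, 7], [(0, 1, 1, 1), (0, 4, 1, 1)]),
  (76, [1, 4, 6, 7], [(0, 2, -1, 1)]),
  (77, [1, 4, 6, 7], [(0, 2, 1, 2)]),
  (78, [1, 4, 2, 7], [(0, 6, -1, -1)]),
  (79, [1, 2, 3], [(0, 5, -1, -1), (0, 7, -1, -1)]),
  (80, [1, 2, 3], [(0, 5, -1, -1), (0, 7, 1, -1)]),
  (81, [1, 2, 6], [(0, 4, -1, -1), (0, 7, -1, -1)]),
  (82, [1], [(0, 4, -1, -1), (0, 6, -1, -1), (5, 7, 1, -1)]),
  (83, [1, 2, 7], [(0, 4, -1, -1), (0, 6, 1, -1)]),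
  (84, [5, 1, 2], [(0, 3, -1, -1), (0, 7, -1, -1)]),
  (85, [1, 2], [(0, 3, -1, -1), (0, 6, -1, -1), (4, 7, 1, -1)]),
  (86, [1, 7], [(0, 3, -1, -1), (0, 5, -1, -1), (4, 6, 1, -1)]),
  (87, [7, 1, 2], [(0, 3, -1, -1), (0, 5, 1, -1)]),
  (88, [4, 6, 5], [(0, 1, -1, -1), (0, 7, -1, -1)]),
  (89, [4], [(0, 1, -1, -1), (0, 6, -1, -1), (0, 2, -1, -1), (0, 7, 1, -1)])]

set_option maxRecDepth 100000 in
theorem chunk_E8c : slChunkB chevE8 tabE8c = true := by decide +kernel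

end Cfsg.Agent.Lib.Helper18.StAbs
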