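import Cfsg.Agent.Lib.Helper18.StCert.Base

/-!
# Certificates for type E8, part 5
-/

set_option autoImplicit false

namespace Cfsg.Agent.Lib.Helper18.StAbs

open Cfsg Cfsg.Lie Cfsg.Lie.ChevalleyDatum

/-- for each root `r`: fundamental roots and pairs of fundamental roots giving diagonal elements
which centralise `X_r` and act nontrivially on the other root subgroups -/
def tabE8e : List (ℕ × List ℕ × List (ℕ × ℕ × ℤ × ℤ)) :=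
  [(120, [0, 1, 4, 2], [(6, 7, 2, 1)]),
  (121, [0, 1, 4], [(5, 6, 2, 1), (5, 7, -1, 1)]),
  (122, [0, 1, 4, 2], [(6, 7, 1, -1)]),
  (123, [0, 1, 7, 2], [(4, 5, 2, 1)]),
  (124, [0, 1, 3], [(5, 6, 1, -1), (4, 7, -1, 1)]),
  (125, [0, 1, 2, 6], [(4, 7, 1, 1)]),
  (126, [0, 6, 1, 2, 7], [(3, 4, 2, 1)]),
  (127, [0, 1, 7], [(4, 5, 1, -1), (3, 6, -1, 1)]),
  (128, [1, 2, 5], [(3, 6, 1, 1), (4, 7, -1, -1)]),
  (129, [0, 5, 1, 2], [(3, 7, 1, 1)]),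
  (130, [6, 7], [(1, 3, 2, 1), (2, 4, -1, 1)]),
  (131, [0, 6, 7], [(3, 4, 1, -1), (1, 5, -1, 1)]),
  (132, [7, 4], [(1, 2, -1, 1), (3, 5, 1, -1), (1, 6, -1, 1)]),
  (133, [4], [(1, 2, -1, 1), (3, 6, 1, -1), (1, 7, -1, 1)]),
  (134, [0, 4, 5], [(1, 2, -1, 1), (3, 7, 1, -1)]),
  (135, [1, 4, 6, 7], [(0, 2, 2, 1)]),
  (136, [5, 7], [(2, 3, 1, -1), (0, 1, -1, 1), (0, 2, 1, 1)]),
  (137, [6, 7], [(0, 1, -1, 1), (0, 4, 1, 1), (0, 2, 1, 1)]),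
  (138, [7, 3, 4], [(0, 1, -1, 1), (0, 5, 1, 1)]),
  (139, [4], [(0, 1, -1, 1), (0, 6, 1, 1), (0, 2, 1, 1), (0, 7, -1, 1)]),
  (140, [4, 6, 5], [(0, 1, -1, 1), (0, 7, 1, 1)]),
  (141, [0, 5, 7, 2], [(1, 3, -1, -2)]),
  (142, [6, 7], [(1, 3, 1, -1), (2, 4, -1, 1)]),
  (143, [6, 0, 7], [(1, 2, -1, -1), (1, 4, 1, -1)]),
  (144, [7, 0, 3], [(1, 2, -1, -1), (1, 5, 1, -1)]),
  (145, [4, 0], [(1, 2, -1, -1), (1, 6, 1, -1), (1, 7, -1, -1)]),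
  (146, [4, 0, 5], [(1, 2, -1, -1), (1, 7, 1, -1)]),
  (147, [6, 7], [(0, 1, 1, 1), (0, 4, -1, 1), (0, 2, 1, 1)]),
  (148, [7], [(0, 1, 1, 1), (0, 4, 1, 1), (3, 5, -1, 1)]),
  (149, [7, 4], [(0, 1, 1, 1), (0, 5, 1, 1), (0, 2, 1, 1)])]

set_option maxRecDepth 100000 in
theorem chunk_E8e : slChunkB chevE8 tabE8e = true := by decide +kernel

end Cfsg.Agent.Lib.Helper18.StAbs
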