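import Cfsg.Agent.Lib.Helper18.StCert.Base

/-!
# Certificates for type E8, part 6
-/

set_option autoImplicit false

namespace Cfsg.Agent.Lib.Helper18.StAbs

open Cfsg Cfsg.Lie Cfsg.Lie.ChevalleyDatum

/-- for each root `r`: fundamental roots and pairs of fundamental roots giving diagonal elements
which centralise `X_r` and act nontrivially on the other root subgroups -/
def tabE8f : List (ℕ × List ℕ × List (ℕ × ℕ × ℤ × ℤ)) :=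
  [(150, [4], [(0, 1, 1, 1), (0, 6, 1, 1), (0, 2, 1, 1), (0, 7, -1, 1)]),
  (151, [4, 6, 5], [(0, 1, 1, 1), (0, 7, 1, 1)]),
  (152, [7, 1, 2], [(0, 3, 1, 1), (0, 5, -1, 1)]),
  (153, [1, 7], [(0, 3, 1, 1), (0, 5, 1, 1), (4, 6, -1, 1)]),
  (154, [1, 2], [(0, 3, 1, 1), (0, 6, 1, 1), (4, 7, -1, 1)]),
  (155, [5, 1, 2], [(0, 3, 1, 1), (0, 7, 1, 1)]),
  (156, [1, 2, 7], [(0, 4, 1, 1), (0, 6, -1, 1)]),
  (157, [1], [(0, 4, 1, 1), (0, 6, 1, 1), (5, 7, -1, 1)]),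
  (158, [1, 2, 6], [(0, 4, 1, 1), (0, 7, 1, 1)]),
  (159, [1, 2, 3], [(0, 5, 1, 1), (0, 7, -1, 1)]),
  (160, [1, 2, 3], [(0, 5, 1, 1), (0, 7, 1, 1)]),
  (161, [1, 4, 2, 7], [(0, 6, 1, 1)]),
  (162, [1, 4, 6, 7], [(0, 2, -1, -2)]),
  (163, [1, 4, 6, 7], [(0, 2, 1, -1)]),
  (164, [6, 2, 7], [(0, 1, -1, -1), (0, 4, -1, -1)]),
  (165, [6, 2, 7], [(0, 1, -1, -1), (0, 4, 1, -1)]),
  (166, [7, 2, 3], [(0, 1, -1, -1), (0, 5, 1, -1)]),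
  (167, [4, 2], [(0, 1, -1, -1), (0, 6, 1, -1), (0, 7, -1, -1)]),
  (168, [4, 2, 5], [(0, 1, -1, -1), (0, 7, 1, -1)]),
  (169, [6, 2, 7], [(0, 1, 1, -1), (0, 4, -1, -1)]),
  (170, [7], [(0, 1, 1, -1), (0, 4, 1, -1), (3, 5, -1, 1)]),
  (171, [7, 2, 4], [(0, 1, 1, -1), (0, 5, 1, -1)]),
  (172, [4, 2], [(0, 1, 1, -1), (0, 6, 1, -1), (0, 7, -1, -1)]),
  (173, [4, 2, 5], [(0, 1, 1, -1), (0, 7, 1, -1)]),
  (174, [1, 6, 7], [(0, 3, 1, -1), (2, 5, -1, 1)]),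
  (175, [7], [(0, 3, 1, -1), (2, 5, 1, 1), (4, 6, -1, 1), (0, 2, -1, -1)]),
  (176, [5], [(0, 3, 1, -1), (2, 6, 1, 1), (0, 7, -1, -1)]),
  (177, [1, 5], [(0, 3, 1, -1), (2, 7, 1, 1), (2, 4, -1, 1)]),
  (178, [1, 7, 5], [(0, 4, 1, -1), (0, 6, -1, -1)]),
  (179, [3], [(0, 4, 1, -1), (0, 6, 1, -1), (2, 5, -1, 1), (0, 7, -1, -1)])]

set_option maxRecDepth 100000 in
theorem chunk_E8f : slChunkB chevE8 tabE8f = true := by decide +kernel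

end Cfsg.Agent.Lib.Helper18.StAbs
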