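import Cfsg.Agent.Lib.Helper18.StCert.Base

/-!
# Certificates for type E8, part 7
-/

set_option autoImplicit false

namespace Cfsg.Agent.Lib.Helper18.StAbs

open Cfsg Cfsg.Lie Cfsg.Lie.ChevalleyDatum

/-- for each root `r`: fundamental roots and pairs of fundamental roots giving diagonal elements
which centralise `X_r` and act nontrivially on the other root subgroups -/
def tabE8g : List (ℕ × List ℕ × List (ℕ × ℕ × ℤ × ℤ)) :=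
  [(180, [1, 6], [(0, 4, 1, -1), (0, 7, 1, -1), (0, 2, -1, -1)]),
  (181, [1, 4, 3], [(0, 5, 1, -1), (0, 7, -1, -1)]),
  (182, [3], [(0, 5, 1, -1), (0, 7, 1, -1), (2, 6, -1, 1)]),
  (183, [1, 4, 7, 5], [(0, 6, 1, -1)]),
  (184, [0, 3, 6, 7], [(2, 5, -1, -1)]),
  (185, [1, 0, 7], [(2, 4, -1, -1), (2, 6, -1, -1)]),
  (186, [1, 0], [(2, 4, -1, -1), (2, 6, 1, -1), (2, 7, -1, -1)]),
  (187, [1, 0, 5], [(2, 4, -1, -1), (2, 7, 1, -1)]),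
  (188, [0, 1, 7], [(2, 4, 1, -1), (3, 6, -1, 1)]),
  (189, [1], [(2, 4, 1, -1), (3, 6, 1, 1), (5, 7, -1, 1)]),
  (190, [0, 1], [(2, 4, 1, -1), (3, 7, 1, 1), (3, 5, -1, 1)]),
  (191, [1, 0, 4], [(2, 5, 1, -1), (2, 7, -1, -1)]),
  (192, [1], [(2, 5, 1, -1), (2, 7, 1, -1), (3, 6, -1, 1)]),
  (193, [0, 5, 7], [(2, 6, 1, -1), (2, 3, -1, -1)]),
  (194, [0, 4, 2, 7], [(1, 6, -1, 1)]),
  (195, [2], [(1, 5, -1, 1), (1, 7, -1, 1), (3, 6, 1, -1)]),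
  (196, [0, 4, 2], [(1, 5, -1, 1), (1, 7, 1, 1)]),
  (197, [0], [(1, 4, -1, 1), (3, 7, -1, -1), (3, 5, 1, -1)]),
  (198, [2], [(1, 4, -1, 1), (3, 6, -1, -1), (5, 7, 1, -1)]),
  (199, [2, 7], [(1, 4, -1, 1), (3, 6, 1, -1)]),
  (200, [0, 5, 2], [(1, 4, 1, 1), (1, 7, -1, 1)]),
  (201, [0, 2], [(1, 4, 1, 1), (1, 6, -1, 1), (1, 7, 1, 1)]),
  (202, [0, 7, 2], [(1, 4, 1, 1), (1, 6, 1, 1)]),
  (203, [0, 7, 2, 3], [(1, 5, 1, 1)]),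
  (204, [0, 4, 2, 7], [(1, 6, -1, -1)]),
  (205, [0, 3, 2], [(1, 5, -1, -1), (1, 7, -1, -1)]),
  (206, [0, 3, 2], [(1, 5, -1, -1), (1, 7, 1, -1)]),
  (207, [0, 6, 2], [(1, 4, -1, -1), (1, 7, -1, -1)]),
  (208, [0], [(1, 4, -1, -1), (1, 6, -1, -1), (5, 7, 1, -1)]),
  (209, [0, 7, 2], [(1, 4, -1, -1), (1, 6, 1, -1)])]

set_option maxRecDepth 100000 in
theorem chunk_E8g : slChunkB chevE8 tabE8g = true := by decide +kernel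

end Cfsg.Agent.Lib.Helper18.StAbs
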