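import Cfsg.Agent.Lib.Helper18.StCert.Base

/-!
# Certificates for type E8, part 8
-/

set_option autoImplicit false

namespace Cfsg.Agent.Lib.Helper18.StAbs

open Cfsg Cfsg.Lie Cfsg.Lie.ChevalleyDatum

/-- for each root `r`: fundamental roots and pairs of fundamental roots giving diagonal elements
which centralise `X_r` and act nontrivially on the other root subgroups -/
def tabE8h : List (ℕ × List ℕ × List (ℕ × ℕ × ℤ × ℤ)) :=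
  [(210, [2, 6], [(1, 4, 1, -1), (3, 7, -1, 1)]),
  (211, [2], [(1, 4, 1, -1), (3, 6, -1, 1), (1, 7, 1, -1)]),
  (212, [2, 7], [(1, 4, 1, -1), (3, 6, 1, 1)]),
  (213, [0, 7, 2, 4], [(1, 5, 1, -1)]),
  (214, [0, 6, 4, 1], [(2, 7, -1, 1)]),
  (215, [0, 5, 1], [(2, 6, -1, 1), (3, 7, 1, -1)]),
  (216, [0, 1, 7], [(2, 5, -1, 1), (3, 6, 1, -1)]),
  (217, [7, 0, 1], [(2, 4, -1, 1), (3, 5, 1, -1)]),
  (218, [0, 5, 6, 7, 1], [(2, 4, 1, 1)]),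
  (219, [1, 4, 5, 6], [(0, 7, -1, 1)]),
  (220, [4, 1], [(0, 6, -1, 1), (2, 7, 1, -1), (0, 2, 1, 1)]),
  (221, [3, 7, 4], [(0, 5, -1, 1), (2, 6, 1, -1)]),
  (222, [7, 3, 1], [(0, 4, -1, 1), (2, 5, 1, -1)]),
  (223, [6, 1, 7], [(0, 3, -1, 1), (2, 4, 1, -1)]),
  (224, [2, 4, 6, 7], [(0, 1, -1, 1)]),
  (225, [2, 4, 6, 7], [(0, 1, 1, 1)]),
  (226, [1, 4, 2, 5], [(0, 7, -1, -1)]),
  (227, [1, 4, 2], [(0, 6, -1, -1), (0, 7, 1, -1)]),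
  (228, [1, 7, 2, 3], [(0, 5, -1, -1)]),
  (229, [1, 6, 2, 7], [(0, 4, -1, -1)]),
  (230, [1, 5, 7, 2], [(0, 3, -1, -1)]),
  (231, [4, 6, 7], [(0, 1, -1, -1), (0, 2, -1, -1)]),
  (232, [0, 4, 6, 7], [(1, 2, 1, 1)]),
  (233, [3, 5, 7, 4], [(0, 1, 1, -1)]),
  (234, [0, 4, 6, 7], [(1, 2, 1, -1)]),
  (235, [0, 1, 5, 7, 2], []),
  (236, [0, 1, 6, 2, 3, 7], []),
  (237, [0, 1, 4, 7, 2], []),
  (238, [0, 1, 4, 2], [(6, 7, -1, -1)]),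
  (239, [0, 1, 4, 6, 2], [])]

set_option maxRecDepth 100000 in
theorem chunk_E8h : slChunkB chevE8 tabE8h = true := by decide +kernel

end Cfsg.Agent.Lib.Helper18.StAbs
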