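import Cfsg.Agent.Lib.Helper18.StCert.E8a
import Cfsg.Agent.Lib.Helper18.StCert.E8b
import Cfsg.Agent.Lib.Helper18.StCert.E8c
import Cfsg.Agent.Lib.Helper18.StCert.E8d
import Cfsg.Agent.Lib.Helper18.StCert.E8e
import Cfsg.Agent.Lib.Helper18.StCert.E8f
import Cfsg.Agent.Lib.Helper18.StCert.E8g
import Cfsg.Agent.Lib.Helper18.StCert.E8h
import Cfsg.Agent.Lib.Helper18.StCert.E8x
import Cfsg.Agent.Lib.Helper18.StCert.E8y

/-!
# Certificates for type E8
-/

set_option autoImplicit false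

namespace Cfsg.Agent.Lib.Helper18.StAbs

open Cfsg Cfsg.Lie Cfsg.Lie.ChevalleyDatum

set_option maxRecDepth 100000 in
theorem cover_E8 : (tabE8a ++ tabE8b ++ tabE8c ++ tabE8d ++ tabE8e ++ tabE8f ++ tabE8g ++ tabE8h).map Prod.fst = List.range chevE8.nroots := by
  decide +kernel

theorem rows_E8 : ∀ r < chevE8.nroots, RowOK chevE8 r := by
  intro r hr
  obtain ⟨x, hx, rfl⟩ := cover_of_eq chevE8 _ cover_E8 r hr
  simp only [List.mem_append] at hx
  rcases hx with ((((((hx | hx) | hx) | hx) | hx) | hx) | hx) | hx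
  · exact rowOK_of_slChunk chevE8 tabE8a chunk_E8a x hx
  · exact rowOK_of_slChunk chevE8 tabE8b chunk_E8b x hx
  · exact rowOK_of_slChunk chevE8 tabE8c chunk_E8c x hx
  · exact rowOK_of_slChunk chevE8 tabE8d chunk_E8d x hx
  · exact rowOK_of_slChunk chevE8 tabE8e chunk_E8e x hx
  · exact rowOK_of_slChunk chevE8 tabE8f chunk_E8f x hx
  · exact rowOK_of_slChunk chevE8 tabE8g chunk_E8g x hx
  · exact rowOK_of_slChunk chevE8 tabE8h chunk_E8h x hx

theorem pair_E8 : ∀ r s, r < chevE8.nroots → s < chevE8.nroots → s ≠ r → s ≠ chevE8.neg r →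
    PairCert chevE8 r s :=
  pairCert_sl chevE8 sl_E8 cart_E8 rows_E8

theorem rootc_E8 : ∀ γ < chevE8.nroots, RootCert chevE8 γ :=
  rootCert_of_rootB chevE8 _ _ root_E8

end Cfsg.Agent.Lib.Helper18.StAbs
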