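import Cfsg.Agent.Lib.Helper18.StCert.Base

/-!
# Certificates for type F₄
-/

set_option autoImplicit false

namespace Cfsg.Agent.Lib.Helper18.StAbs

open Cfsg Cfsg.Lie Cfsg.Lie.ChevalleyDatum

/-- elements of the Weyl group of type F₄, as words, moving the roots of the commutator formula
of each pair of roots into the positive roots -/
def wsF4 : List (List ℕ) := [[], [2, 0, 1, 2, 3, 2, 1, 2, 0, 1, 2, 3, 2, 1, 2, 0, 1, 0],
  [3, 1, 2, 0, 1, 2, 3, 2, 0, 1, 2, 0], [1, 2, 3, 1, 2, 0, 1, 2, 3, 2, 1, 2, 1],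
  [1, 2, 0, 1, 2, 3, 2, 1, 2, 0, 1, 2, 0, 1], [2, 3, 1, 2, 0, 1, 2, 3, 1, 0]]

theorem cart_F4 : cartChk chevF4 = true := by decide +kernel

theorem chunk_F4 : chunkF chevF4 wsF4 (List.range chevF4.nroots) = true := by decide +kernel

theorem root_F4 : rootB chevF4 (bzCands chevF4) [] = true := by decide +kernel

theorem pair_F4 : ∀ r s, r < chevF4.nroots → s < chevF4.nroots → s ≠ r → s ≠ chevF4.neg r →
    PairCert chevF4 r s :=
  fun r s hr hs hsr hsn => pairCert_of_chunk chevF4 cart_F4 wsF4 _ chunk_F4 r s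
    (List.mem_range.mpr hr) hr hs hsr hsn

theorem rootc_F4 : ∀ γ < chevF4.nroots, RootCert chevF4 γ :=
  rootCert_of_rootB chevF4 _ _ root_F4

end Cfsg.Agent.Lib.Helper18.StAbs
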