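import Cfsg.Agent.Lib.Helper18.StCert.G2
import Cfsg.Agent.Lib.Helper18.StCert.B2
import Cfsg.Agent.Lib.Helper18.StCert.D4
import Cfsg.Agent.Lib.Helper18.StCert.F4
import Cfsg.Agent.Lib.Helper18.StCert.E6
import Cfsg.Agent.Lib.Helper18.StCert.E7
import Cfsg.Agent.Lib.Helper18.StCert.E8

/-!
# Steinberg's universality theorem for the seven types
-/

set_option autoImplicit false

namespace Cfsg.Agent.Lib.Helper18.StAbs

open Cfsg Cfsg.Lie Cfsg.Lie.ChevalleyDatum

/-- Steinberg: over a field with more than four elements, homomorphisms from the group presented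
by (R1), (R2) lift uniquely through central extensions -/
theorem univ_all {K : Type*} [Field K] (hK5 : ∃ s : Finset K, 4 < s.card) (D : ChevalleyDatum)
    (hD : D ∈ [chevG2, chevB2, chevD4, chevF4, chevE6, chevE7, chevE8])
    {G₁ E : Type*} [Group G₁] [Group E] (π₁ : E →* G₁) (hπ₁ : Function.Surjective π₁)
    (hc : π₁.ker ≤ Subgroup.center E) (σ : D.SteinbergCover K →* G₁) :
    ∃! τ : D.SteinbergCover K →* E, π₁.comp τ = σ := by
  have hD' := hD
  simp only [List.mem_cons, List.mem_nil_iff, or_false] at hD'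
  rcases hD' with rfl | rfl | rfl | rfl | rfl | rfl | rfl
  · exact cover_univ2 hD hK5 pair_G2 rootc_G2 π₁ hπ₁ hc σ
  · exact cover_univ2 hD hK5 pair_B2 rootc_B2 π₁ hπ₁ hc σ
  · exact cover_univ2 hD hK5 pair_D4 rootc_D4 π₁ hπ₁ hc σ
  · exact cover_univ2 hD hK5 pair_F4 rootc_F4 π₁ hπ₁ hc σ
  · exact cover_univ2 hD hK5 pair_E6 rootc_E6 π₁ hπ₁ hc σ
  · exact cover_univ2 hD hK5 pair_E7 rootc_E7 π₁ hπ₁ hc σ
  · exact cover_univ2 hD hK5 pair_E8 rootc_E8 π₁ hπ₁ hc σ

end Cfsg.Agent.Lib.Helper18.StAbs
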