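import Cfsg.Agent.Lib.Helper18.StLiftSL
import Cfsg.Agent.Lib.Helper18.StUniv2

/-!
# Common tools for the certificates of the seven types
-/

set_option autoImplicit false

namespace Cfsg.Agent.Lib.Helper18.StAbs

open Cfsg Cfsg.Lie Cfsg.Lie.ChevalleyDatum Cfsg.Agent.Lib.Helper17

/-- the diagonal elements `h_i(a^{±1})` -/
def bzCands (D : ChevalleyDatum) : List (ℕ × ℕ × ℤ × ℤ) :=
  (List.range D.rank).flatMap fun i => [(i, i, 1, 0), (i, i, -1, 0)]

theorem pairCert_of_allPairB (D : ChevalleyDatum) (ws : List (List ℕ))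
    (cert : ℕ → ℕ → ℕ × ℕ × ℤ × ℤ) (h : allPairB D ws cert = true) (r s : ℕ)
    (hr : r < D.nroots) (hs : s < D.nroots) (hsr : s ≠ r) (hsn : s ≠ D.neg r) :
    PairCert D r s := by
  have h1 := List.all_eq_true.mp (List.all_eq_true.mp h r (List.mem_range.mpr hr)) s
    (List.mem_range.mpr hs)
  rw [Bool.or_eq_true, Bool.or_eq_true] at h1
  rcases h1 with (h1 | h1) | h1
  · exact absurd (by simpa using h1) hsr
  · exact absurd (by simpa using h1) hsn
  · exact pairCert_of_pairB D ws cert r s h1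

theorem cover_of_eq (D : ChevalleyDatum) (tab : List (ℕ × List ℕ × List (ℕ × ℕ × ℤ × ℤ)))
    (h : tab.map Prod.fst = List.range D.nroots) (r : ℕ) (hr : r < D.nroots) :
    ∃ x ∈ tab, x.1 = r := by
  have h1 : r ∈ tab.map Prod.fst := by
    rw [h]
    exact List.mem_range.mpr hr
  obtain ⟨x, hx, hxr⟩ := List.mem_map.mp h1
  exact ⟨x, hx, hxr⟩

end Cfsg.Agent.Lib.Helper18.StAbs
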