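import Cfsg.Agent.Lib.Helper18.StCert.Base

/-!
# Certificates for type D4: the rows
-/

set_option autoImplicit false

namespace Cfsg.Agent.Lib.Helper18.StAbs

open Cfsg Cfsg.Lie Cfsg.Lie.ChevalleyDatum

/-- for each root `r`: fundamental roots and pairs of fundamental roots giving diagonal elements
which centralise `X_r` and act nontrivially on the other root subgroups -/
def tabD4a : List (ℕ × List ℕ × List (ℕ × ℕ × ℤ × ℤ)) :=
  [(0, [0, 2, 3], []),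
  (1, [], [(0, 1, 1, 1), (2, 3, -1, 1)]),
  (2, [1], [(0, 2, -1, 1)]),
  (3, [1], [(0, 3, -1, 1)]),
  (4, [], [(0, 1, -1, 1)]),
  (5, [], [(0, 1, 1, 2)]),
  (6, [1], [(2, 3, -1, 1)]),
  (7, [], [(1, 2, -1, 1)]),
  (8, [], [(1, 3, -1, 1)]),
  (9, [], [(0, 1, -2, -1)]),
  (10, [], [(1, 2, -2, -1)]),
  (11, [], [(1, 3, -2, -1)]),
  (12, [], [(1, 3, 2, 1)]),
  (13, [], [(1, 2, 2, 1)]),
  (14, [], [(0, 1, 2, 1)]),
  (15, [], [(1, 3, 1, -1)]),
  (16, [], [(1, 2, 1, -1)]),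
  (17, [1], [(2, 3, 1, -1)]),
  (18, [], [(0, 1, -1, -2)]),
  (19, [], [(0, 1, 1, -1)]),
  (20, [1], [(0, 3, 1, -1)]),
  (21, [1], [(0, 2, 1, -1)]),
  (22, [], [(0, 1, -1, -1), (2, 3, 1, -1)]),
  (23, [0, 2, 3], [])]

set_option maxRecDepth 100000 in
theorem chunk_D4a : slChunkB chevD4 tabD4a = true := by decide +kernel

end Cfsg.Agent.Lib.Helper18.StAbs
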