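import Cfsg.Agent.Lib.Helper18.StCert.Base

/-!
# Certificates for type E7, part 1
-/

set_option autoImplicit false

namespace Cfsg.Agent.Lib.Helper18.StAbs

open Cfsg Cfsg.Lie Cfsg.Lie.ChevalleyDatum

/-- for each root `r`: fundamental roots and pairs of fundamental roots giving diagonal elements
which centralise `X_r` and act nontrivially on the other root subgroups -/
def tabE7a : List (ℕ × List ℕ × List (ℕ × ℕ × ℤ × ℤ)) :=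
  [(0, [1, 2, 4, 5], []),
  (1, [1, 4, 5], [(0, 2, -1, -1)]),
  (2, [0, 1, 4, 5], []),
  (3, [0, 2, 5], [(1, 4, -1, 1)]),
  (4, [0, 2], [(1, 4, 1, 1), (1, 5, -1, 1)]),
  (5, [0, 2, 3], [(1, 5, 1, 1)]),
  (6, [0, 2, 3], [(1, 6, 1, 1)]),
  (7, [0, 2, 5], [(1, 4, -1, -1)]),
  (8, [0], [(1, 4, 1, -1), (3, 5, -1, 1)]),
  (9, [0, 2, 4], [(1, 5, 1, -1)]),
  (10, [0, 2, 5], [(1, 6, 1, -1)]),
  (11, [1, 0, 4], [(2, 5, -1, 1)]),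
  (12, [0, 1], [(2, 4, -1, 1), (2, 6, -1, 1)]),
  (13, [0, 1], [(2, 4, -1, 1), (2, 6, 1, 1)]),
  (14, [0, 1], [(2, 4, 1, 1), (2, 6, -1, 1)]),
  (15, [0, 1], [(2, 4, 1, 1), (2, 6, 1, 1)]),
  (16, [1, 0, 3], [(2, 5, 1, 1)]),
  (17, [1, 3, 4], [(0, 5, -1, 1)]),
  (18, [3], [(0, 4, -1, 1), (0, 6, -1, 1), (0, 2, 1, 1)]),
  (19, [3, 5], [(0, 4, -1, 1), (0, 6, 1, 1)]),
  (20, [], [(0, 3, -1, 1), (0, 6, -1, 1), (2, 4, 1, -1)]),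
  (21, [], [(0, 3, -1, 1), (0, 5, -1, 1), (4, 6, 1, -1)]),
  (22, [1, 4], [(0, 3, -1, 1), (0, 5, 1, 1)]),
  (23, [2, 4], [(0, 1, -1, 1), (0, 6, -1, 1)]),
  (24, [2, 4], [(0, 1, -1, 1), (0, 5, -1, 1)]),
  (25, [], [(0, 1, -1, 1), (0, 4, -1, 1), (3, 5, 1, -1)]),
  (26, [2, 5], [(0, 1, -1, 1), (0, 4, 1, 1)]),
  (27, [2, 3], [(0, 1, 1, 1), (0, 6, -1, 1)]),
  (28, [2, 3], [(0, 1, 1, 1), (0, 5, -1, 1)]),
  (29, [2, 6], [(0, 1, 1, 1), (0, 4, -1, 1)]),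
  (30, [2, 5], [(0, 1, 1, 1), (0, 4, 1, 1)]),
  (31, [1, 4, 5], [(0, 2, -1, 1)])]

set_option maxRecDepth 100000 in
theorem chunk_E7a : slChunkB chevE7 tabE7a = true := by decide +kernel

end Cfsg.Agent.Lib.Helper18.StAbs
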