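import Cfsg.Agent.Lib.Helper18.StCert.Base

/-!
# Certificates for type E8, part 1
-/

set_option autoImplicit false

namespace Cfsg.Agent.Lib.Helper18.StAbs

open Cfsg Cfsg.Lie Cfsg.Lie.ChevalleyDatum

/-- for each root `r`: fundamental roots and pairs of fundamental roots giving diagonal elements
which centralise `X_r` and act nontrivially on the other root subgroups -/
def tabE8a : List (ℕ × List ℕ × List (ℕ × ℕ × ℤ × ℤ)) :=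
  [(0, [0, 1, 4, 6, 2], []),
  (1, [0, 1, 4, 2], [(6, 7, 1, 1)]),
  (2, [0, 1, 4, 7, 2], []),
  (3, [0, 1, 6, 2, 3, 7], []),
  (4, [0, 1, 5, 7, 2], []),
  (5, [0, 4, 6, 7], [(1, 2, -1, 1)]),
  (6, [3, 5, 7, 4], [(0, 1, -1, 1)]),
  (7, [0, 4, 6, 7], [(1, 2, -1, -1)]),
  (8, [4, 6, 7], [(0, 1, 1, 1), (0, 2, 1, 1)]),
  (9, [1, 5, 7, 2], [(0, 3, 1, 1)]),
  (10, [1, 6, 2, 7], [(0, 4, 1, 1)]),
  (11, [1, 7, 2, 3], [(0, 5, 1, 1)]),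
  (12, [1, 4, 2], [(0, 6, 1, 1), (0, 7, -1, 1)]),
  (13, [1, 4, 2, 5], [(0, 7, 1, 1)]),
  (14, [2, 4, 6, 7], [(0, 1, -1, -1)]),
  (15, [2, 4, 6, 7], [(0, 1, 1, -1)]),
  (16, [6, 1, 7], [(0, 3, 1, -1), (2, 4, -1, 1)]),
  (17, [7, 3, 1], [(0, 4, 1, -1), (2, 5, -1, 1)]),
  (18, [3, 7, 4], [(0, 5, 1, -1), (2, 6, -1, 1)]),
  (19, [4, 1], [(0, 6, 1, -1), (2, 7, -1, 1), (0, 2, -1, -1)]),
  (20, [1, 4, 5, 6], [(0, 7, 1, -1)]),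
  (21, [0, 5, 6, 7, 1], [(2, 4, -1, -1)]),
  (22, [7, 0, 1], [(2, 4, 1, -1), (3, 5, -1, 1)]),
  (23, [0, 1, 7], [(2, 5, 1, -1), (3, 6, -1, 1)]),
  (24, [0, 5, 1], [(2, 6, 1, -1), (3, 7, -1, 1)]),
  (25, [0, 6, 4, 1], [(2, 7, 1, -1)]),
  (26, [0, 7, 2, 4], [(1, 5, -1, 1)]),
  (27, [2, 7], [(1, 4, -1, 1), (3, 6, -1, -1)]),
  (28, [2], [(1, 4, -1, 1), (3, 6, 1, -1), (1, 7, -1, 1)]),
  (29, [2, 6], [(1, 4, -1, 1), (3, 7, 1, -1)])]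

set_option maxRecDepth 100000 in
theorem chunk_E8a : slChunkB chevE8 tabE8a = true := by decide +kernel

end Cfsg.Agent.Lib.Helper18.StAbs
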