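import Cfsg.Agent.Lib.Helper18.StCert.Base

/-!
# Certificates for type G₂
-/

set_option autoImplicit false

namespace Cfsg.Agent.Lib.Helper18.StAbs

open Cfsg Cfsg.Lie Cfsg.Lie.ChevalleyDatum

theorem pair_G2 : ∀ r s, r < chevG2.nroots → s < chevG2.nroots → s ≠ r → s ≠ chevG2.neg r →
    PairCert chevG2 r s :=
  fun r s hr hs hsr hsn => pairCert_of_allPairB chevG2 wsG2 certG2 chk_pair_G2 r s hr hs hsr hsn

theorem rootc_G2 : ∀ γ < chevG2.nroots, RootCert chevG2 γ :=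
  fun γ hγ => rootCert_of_bz chevG2 candsG2 chk_bz_G2 γ hγ

end Cfsg.Agent.Lib.Helper18.StAbs
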